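import Mathlib
import Cfsg.Agent.Lib.Classical.Elusive.JordanType
import Cfsg.Agent.Lib.Classical.Lin.JT1

/-!
# Wall parity for a unipotent isometry of a nondegenerate invariant subspace

If `W` is `N`-invariant, nondegenerate for the symmetric form `B`, `1 + N` preserves `B` on `W` and `N`
is nilpotent, then in the Jordan type of `N` on `W` even parts have even multiplicity.
-/

set_option autoImplicit false
set_option linter.unusedSectionVars false
set_option linter.unusedSimpArgs false
set_option linter.unusedVariables false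

namespace Cfsg.Agent.Lib.Classical.OJordan.Parity

open Module
open Cfsg.Agent.Lib.Classical.Elusive.Inv Cfsg.Agent.Lib.Classical.Elusive.Jordan
  Cfsg.Agent.Lib.Classical.Elusive.JordanType Cfsg.Agent.Lib.Classical.Lin.JT1

variable {F V : Type*} [Field F] [AddCommGroup V] [Module F V] [FiniteDimensional F V]

/-- Reindexing a chain. -/
theorem isChain_reindex {N : Module.End F V} {W : Submodule F V} {J J' : Type} {v : J → V} {e : J → ℕ}
    (h : IsChain N W v e) (σ : J' ≃ J) : IsChain N W (v ∘ σ) (e ∘ σ) := by
  have key : chainB N (v ∘ σ) (e ∘ σ) = chainB N v e ∘ (Equiv.sigmaCongrLeft (β := fun j => Fin (e j)) σ) := by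
    funext ⟨a, b⟩
    rfl
  refine ⟨fun j => h.pos _, fun j => h.kill _, ?_, ?_⟩
  · rw [key]
    exact h.li.comp _ (Equiv.injective _)
  · rw [key, Set.range_comp, Equiv.range_eq_univ, Set.image_univ]
    exact h.span

section Core

variable {t : ℕ} {d : Fin t → ℕ}

/-- The coordinates of a chain. -/
noncomputable def coord (N : Module.End F V) (v : Fin t → V) (d : Fin t → ℕ) : (Ix d → F) →ₗ[F] V where
  toFun x := ∑ a : Ix d, x a • chainB N v d a
  map_add' x y := by
    simp only [Pi.add_apply, add_smul, Finset.sum_add_distrib]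
  map_smul' c x := by
    simp only [Pi.smul_apply, smul_eq_mul, mul_smul, RingHom.id_apply, Finset.smul_sum]

theorem coord_apply (N : Module.End F V) (v : Fin t → V) (d : Fin t → ℕ) (x : Ix d → F) :
    coord N v d x = ∑ a : Ix d, x a • chainB N v d a := rfl

theorem coord_single [DecidableEq (Ix d)] (N : Module.End F V) (v : Fin t → V) (a : Ix d) :
    coord N v d (Pi.single a 1) = chainB N v d a := by
  rw [coord_apply, Finset.sum_eq_single a]
  · simp
  · intro b _ hb
    rw [Pi.single_eq_of_ne hb, zero_smul]
  · simp

theorem coord_injective {N : Module.End F V} {W : Submodule F V} {v : Fin t → V} (h : IsChain N W v d) :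
    Function.Injective (coord N v d) := by
  rw [← LinearMap.ker_eq_bot, LinearMap.ker_eq_bot']
  intro x hx
  have := (Fintype.linearIndependent_iff.1 h.li) x hx
  exact funext this

theorem coord_mem {N : Module.End F V} {W : Submodule F V} {v : Fin t → V} (h : IsChain N W v d) (x : Ix d → F) :
    coord N v d x ∈ W := by
  rw [coord_apply]
  refine W.sum_mem fun a _ => W.smul_mem _ ?_
  rw [← h.span]
  exact Submodule.subset_span ⟨a, rfl⟩

theorem exists_coord {N : Module.End F V} {W : Submodule F V} {v : Fin t → V} (h : IsChain N W v d) {w : V} (hw : w ∈ W) :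
    ∃ x, coord N v d x = w := by
  rw [← h.span] at hw
  rw [Submodule.mem_span_range_iff_exists_fun] at hw
  obtain ⟨c, hc⟩ := hw
  exact ⟨c, hc⟩

theorem coord_nL {N : Module.End F V} {W : Submodule F V} {v : Fin t → V} (h : IsChain N W v d) (x : Ix d → F) :
    coord N v d (nL F d x) = N (coord N v d x) := by
  classical
  have key : (coord N v d).comp (nL F d) = N.comp (coord N v d) := by
    apply LinearMap.pi_ext'
    intro a
    apply LinearMap.ext_ring
    obtain ⟨m, i⟩ := a
    show coord N v d (nL F d (Pi.single ⟨m, i⟩ 1)) = N (coord N v d (Pi.single ⟨m, i⟩ 1))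
    rw [coord_single]
    by_cases hi : (i : ℕ) + 1 < d m
    · have := nL_single (F := F) (d := d) (m := m) (i := (i : ℕ)) hi
      have e : (⟨m, ⟨(i : ℕ), by omega⟩⟩ : Ix d) = ⟨m, i⟩ := rfl
      rw [e] at this
      rw [this, coord_single, chainB_apply, chainB_apply, ← Module.End.mul_apply, ← pow_succ']
    · have h1 : (i : ℕ) + 1 = d m := by
        have := i.2
        omega
      have h2 : nL F d (Pi.single (⟨m, i⟩ : Ix d) 1) = 0 := by
        funext ⟨l, b⟩
        rw [nL_apply]
        simp only [Pi.zero_apply]
        by_cases hb : 0 < (b : ℕ)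
        · rw [dif_pos hb, Pi.single_eq_of_ne]
          intro e
          have h0 := congrArg Sigma.fst e
          simp only at h0
          subst h0
          have h3 : (⟨(b : ℕ) - 1, by have := b.2; omega⟩ : Fin (d l)) = i := by simpa using e
          have h4 := congrArg Fin.val h3
          simp only at h4
          have := b.2
          omega
        · rw [dif_neg hb]
      rw [h2, map_zero, chainB_apply, ← Module.End.mul_apply, ← pow_succ', h1, h.kill]
  exact LinearMap.congr_fun key x

end Core

/-- Wall parity on invariant nondegenerate subspaces. -/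
theorem even_count (B : LinearMap.BilinForm F V) (hS : ∀ x y, B x y = B y x) (h2 : (2 : F) ≠ 0)
    {N : Module.End F V} {M : ℕ} (hN : N ^ M = 0) {W : Submodule F V} (hW : IsInv N W)
    (hnd : ∀ w ∈ W, (∀ x ∈ W, B w x = 0) → w = 0)
    (hI : ∀ x ∈ W, ∀ y ∈ W, B (x + N x) (y + N y) = B x y)
    {ν : Multiset ℕ} (hν : ∀ a ∈ ν, 0 < a) (hT : ∀ k, finrank F (W.map (N ^ k)) = gg ν k) :
    ∀ e : ℕ, Even e → Even (ν.count e) := by
  classical
  intro j hj
  by_cases hj0 : j = 0
  · subst hj0
    rw [Multiset.count_eq_zero_of_notMem (fun h => absurd (hν 0 h) (lt_irrefl 0))]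
    exact Even.zero
  obtain ⟨J, i1, i2, v0, e0, hC0⟩ := exists_chain hN (finrank F W) W le_rfl hW
  let σ : Fin (Fintype.card J) ≃ J := (Fintype.equivFin J).symm
  have hC := isChain_reindex hC0 σ
  let d : Fin (Fintype.card J) → ℕ := e0 ∘ σ
  let v : Fin (Fintype.card J) → V := v0 ∘ σ
  have hνeq : ν = mu d := by
    apply gg_inj hν (mu_pos hC)
    intro k
    rw [← hT, hC.finrank_map_gg]
  let φ := coord N v d
  have hφnL : ∀ x, φ (nL F d x) = N (φ x) := coord_nL hC
  have hφmem : ∀ x, φ x ∈ W := coord_mem hC
  have hφinj : Function.Injective φ := coord_injective hC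
  let B' : LinearMap.BilinForm F (Ix d → F) := LinearMap.BilinForm.comp B φ φ
  have hB' : ∀ x y, B' x y = B (φ x) (φ y) := fun x y => rfl
  have hnd' : B'.Nondegenerate := by
    constructor
    · intro x hx
      apply hφinj
      rw [map_zero]
      apply hnd _ (hφmem x)
      intro w hw
      obtain ⟨y, rfl⟩ := exists_coord hC hw
      exact hx y
    · intro y hy
      apply hφinj
      rw [map_zero]
      apply hnd _ (hφmem y)
      intro w hw
      obtain ⟨x, rfl⟩ := exists_coord hC hw
      rw [hS]
      exact hy x
  have hJ : ∀ x y, B' (jL F d x) (jL F d y) = B' x y := by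
    intro x y
    have e1 : ∀ z, φ (jL F d z) = φ z + N (φ z) := by
      intro z
      rw [jL_apply, map_add, hφnL]
    rw [hB', hB', e1, e1]
    exact hI _ (hφmem x) _ (hφmem y)
  have := even_of_symm B' hJ hnd' (fun x y => by rw [hB', hB', hS]) h2 hj (by omega)
  rw [Fintype.card_subtype] at this
  rw [hνeq]
  have e1 : (mu d).count j = (Finset.univ.filter (fun k => d k = j)).card := by
    simp only [mu, Multiset.count_map]
    rw [← Finset.card_val, Finset.filter_val]
    congr 1
    apply Multiset.filter_congr
    intro a _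
    exact eq_comm
  rw [e1]
  exact this

end Cfsg.Agent.Lib.Classical.OJordan.Parity
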