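import Mathlib
import Cfsg.Agent.Lib.Classical.Lin.JT4
import Cfsg.Agent.Lib.Classical.OJordan.Parity
import Cfsg.Agent.Lib.Classical.Witt.Index
import Cfsg.Agent.S2618

/-!
# Quadratic spaces with a unipotent isometry of given Jordan type, odd dimension
-/

set_option autoImplicit false
set_option linter.unusedSectionVars false
set_option linter.unusedSimpArgs false
set_option linter.unusedVariables false

namespace Cfsg.Agent.Lib.Classical.OJordan.Model

open Module QuadraticMap
open Cfsg.Agent.Lib.Classical.Elusive.Inv Cfsg.Agent.Lib.Classical.Elusive.Jordan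
  Cfsg.Agent.Lib.Classical.Elusive.JordanType Cfsg.Agent.Lib.Classical.Lin.JT1

variable {F : Type*} [Field F]

/-- `Q` has a unipotent isometry `1 + N` where `N` has Jordan type `μ`. -/
def HasType {V : Type*} [AddCommGroup V] [Module F V] (Q : QuadraticForm F V) (μ : Multiset ℕ) : Prop :=
  ∃ N : Module.End F V, (∀ v, Q (v + N v) = Q v) ∧
    ∀ k, finrank F ((⊤ : Submodule F V).map (N ^ k)) = gg μ k

section Transport

variable {V V' : Type*} [AddCommGroup V] [Module F V] [AddCommGroup V'] [Module F V']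

theorem conj_pow (ψ : V ≃ₗ[F] V') (N' : Module.End F V') (k : ℕ) (v : V) :
    (((ψ.symm : V' →ₗ[F] V) ∘ₗ N' ∘ₗ (ψ : V →ₗ[F] V')) ^ k) v = ψ.symm ((N' ^ k) (ψ v)) := by
  induction k generalizing v with
  | zero => simp
  | succ k ih =>
    rw [pow_succ, Module.End.mul_apply, ih, pow_succ, Module.End.mul_apply]
    simp

/-- Transport along a similitude. -/
theorem HasType.congr {Q : QuadraticForm F V} {Q' : QuadraticForm F V'} {μ : Multiset ℕ}
    (h : HasType Q' μ) (ψ : V ≃ₗ[F] V') (c : F) (hc : ∀ v, Q v = c * Q' (ψ v)) : HasType Q μ := by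
  obtain ⟨N', h1, h2⟩ := h
  refine ⟨(ψ.symm : V' →ₗ[F] V) ∘ₗ N' ∘ₗ (ψ : V →ₗ[F] V'), ?_, ?_⟩
  · intro v
    rw [hc, hc, map_add]
    simp only [LinearMap.comp_apply, LinearEquiv.coe_coe, LinearEquiv.apply_symm_apply, h1]
  · intro k
    rw [← h2 k]
    have e : (⊤ : Submodule F V).map (((ψ.symm : V' →ₗ[F] V) ∘ₗ N' ∘ₗ (ψ : V →ₗ[F] V')) ^ k) =
        ((⊤ : Submodule F V').map (N' ^ k)).map (ψ.symm : V' →ₗ[F] V) := by
      ext x
      simp only [Submodule.mem_map, Submodule.mem_top, true_and]
      constructor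
      · rintro ⟨y, rfl⟩
        refine ⟨(N' ^ k) (ψ y), ⟨ψ y, rfl⟩, ?_⟩
        rw [conj_pow]
        rfl
      · rintro ⟨_, ⟨y, rfl⟩, rfl⟩
        refine ⟨ψ.symm y, ?_⟩
        rw [conj_pow]
        simp
    rw [e]
    exact LinearEquiv.finrank_map_eq ψ.symm _

end Transport

section Prod

variable {V₁ V₂ : Type*} [AddCommGroup V₁] [Module F V₁] [AddCommGroup V₂] [Module F V₂]

theorem prodMap_pow (N₁ : Module.End F V₁) (N₂ : Module.End F V₂) (k : ℕ) :
    (N₁.prodMap N₂ : Module.End F (V₁ × V₂)) ^ k = (N₁ ^ k).prodMap (N₂ ^ k) := by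
  induction k with
  | zero =>
    ext <;> simp
  | succ k ih =>
    rw [pow_succ, ih, pow_succ, pow_succ]
    ext <;> simp

theorem finrank_map_prodMap [FiniteDimensional F V₁] [FiniteDimensional F V₂] (f₁ : V₁ →ₗ[F] V₁) (f₂ : V₂ →ₗ[F] V₂) :
    finrank F ((⊤ : Submodule F (V₁ × V₂)).map (f₁.prodMap f₂)) =
      finrank F ((⊤ : Submodule F V₁).map f₁) + finrank F ((⊤ : Submodule F V₂).map f₂) := by
  rw [Submodule.map_top, Submodule.map_top, Submodule.map_top, LinearMap.range_prodMap]
  rw [← Module.finrank_prod]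
  have hinj : Function.Injective ((LinearMap.range f₁).subtype.prodMap (LinearMap.range f₂).subtype) :=
    Function.Injective.prodMap Subtype.val_injective Subtype.val_injective
  have := LinearMap.finrank_range_of_inj hinj
  rw [LinearMap.range_prodMap, Submodule.range_subtype, Submodule.range_subtype] at this
  exact this

/-- Orthogonal sums. -/
theorem HasType.prod {Q₁ : QuadraticForm F V₁} {Q₂ : QuadraticForm F V₂} {μ₁ μ₂ : Multiset ℕ}
    [FiniteDimensional F V₁] [FiniteDimensional F V₂]
    (h₁ : HasType Q₁ μ₁) (h₂ : HasType Q₂ μ₂) : HasType (Q₁.prod Q₂) (μ₁ + μ₂) := by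
  obtain ⟨N₁, a₁, b₁⟩ := h₁
  obtain ⟨N₂, a₂, b₂⟩ := h₂
  refine ⟨N₁.prodMap N₂, ?_, ?_⟩
  · rintro ⟨x, y⟩
    simp only [QuadraticMap.prod_apply, LinearMap.prodMap_apply, Prod.mk_add_mk, a₁, a₂]
  · intro k
    rw [prodMap_pow, finrank_map_prodMap, b₁, b₂, gg_add]

end Prod

section Chain

variable {t : ℕ} {d : Fin t → ℕ}

/-- The coordinate chain. -/
theorem nL_pow_single [DecidableEq (Ix d)] (hd : ∀ k, 0 < d k) (k : Fin t) (l : ℕ) (hl : l < d k) :
    ((nL F d) ^ l) (Pi.single (⟨k, ⟨0, hd k⟩⟩ : Ix d) 1) = Pi.single (⟨k, ⟨l, hl⟩⟩ : Ix d) 1 := by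
  induction l with
  | zero => simp
  | succ l ih =>
    rw [pow_succ', Module.End.mul_apply, ih (by omega)]
    exact nL_single hl

theorem isChain_nL [DecidableEq (Ix d)] (hd : ∀ k, 0 < d k) :
    IsChain (nL F d) (⊤ : Submodule F (Ix d → F)) (fun k => Pi.single (⟨k, ⟨0, hd k⟩⟩ : Ix d) (1 : F)) d := by
  have key : chainB (nL F d) (fun k => Pi.single (⟨k, ⟨0, hd k⟩⟩ : Ix d) (1 : F)) d = ⇑(Pi.basisFun F (Ix d)) := by
    funext ⟨k, l⟩
    rw [chainB_apply, nL_pow_single hd k l l.2]
    simp
  refine ⟨hd, ?_, ?_, ?_⟩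
  · intro k
    funext ⟨a, b⟩
    rw [nL_pow_apply]
    simp only [Pi.zero_apply]
    by_cases h : d k ≤ (b : ℕ)
    · rw [dif_pos h, Pi.single_eq_of_ne]
      intro e
      have h0 := congrArg Sigma.fst e
      simp only at h0
      subst h0
      have := b.2
      omega
    · rw [dif_neg h]
  · rw [key]
    exact (Pi.basisFun F (Ix d)).linearIndependent
  · rw [key]
    exact (Pi.basisFun F (Ix d)).span_eq

/-- A partition as a family. -/
theorem exists_family (μ : Multiset ℕ) : ∃ (t : ℕ) (d : Fin t → ℕ), mu d = μ := by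
  induction μ using Quotient.inductionOn with
  | _ l =>
    refine ⟨l.length, l.get, ?_⟩
    simp only [mu, Fin.univ_val_map, List.ofFn_get]
    rfl

theorem card_filter_mu (j : ℕ) : (Finset.univ.filter (fun k => d k = j)).card = (mu d).count j := by
  simp only [mu, Multiset.count_map]
  rw [← Finset.card_val, Finset.filter_val]
  congr 1
  apply Multiset.filter_congr
  intro a _
  exact eq_comm

theorem sum_mu : (mu d).sum = ∑ k, d k := rfl

/-- A form for every partition with the parity condition. -/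
theorem exists_form (h2F : (2 : F) ≠ 0) (hd : ∀ k, 0 < d k)
    (heven : ∀ e : ℕ, Even e → Even ((mu d).count e)) :
    ∃ Q : QuadraticForm F (Ix d → F), (polarBilin Q).Nondegenerate ∧ HasType Q (mu d) := by
  classical
  obtain ⟨Q, hnd, e, A, hc⟩ := Cfsg.Agent.Lib.Classical.Lin.JT4.backward_odd (F := F) h2F (d := d) (n := ∑ k, d k) rfl
    (fun j hj _ => by rw [card_filter_mu]; exact heven j hj) (fun k => hd k)
  obtain ⟨φ, hφ⟩ := exists_phi e hc
  refine ⟨Q.comp (φ : (Ix d → F) →ₗ[F] (Fin (∑ k, d k) → F)), ?_, nL F d, ?_, ?_⟩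
  · constructor
    · intro x hx
      have : φ x = 0 := hnd.1 _ (fun y => by
        have := hx (φ.symm y)
        simpa [QuadraticMap.polar] using this)
      simpa using this
    · intro y hy
      have : φ y = 0 := hnd.2 _ (fun x => by
        have := hy (φ.symm x)
        simpa [QuadraticMap.polar] using this)
      simpa using this
  · intro v
    simp only [QuadraticMap.comp_apply, LinearEquiv.coe_coe]
    have h1 : φ (v + nL F d v) = φ (jL F d v) := rfl
    rw [h1, hφ]
    exact A.2 (φ v) (φ v)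
  · intro k
    exact (isChain_nL hd).finrank_map_gg k

end Chain

section Odd

variable {V V' : Type*} [AddCommGroup V] [Module F V] [AddCommGroup V'] [Module F V']
  [FiniteDimensional F V] [FiniteDimensional F V']

/-- Nondegenerate quadratic spaces of the same odd dimension over a finite field are similar. -/
theorem exists_similitude [Finite F] {m : ℕ} (hV : finrank F V = 2 * m + 1) (hV' : finrank F V' = 2 * m + 1)
    (Q : QuadraticForm F V) (Q' : QuadraticForm F V')
    (hQ : (polarBilin Q).Nondegenerate) (hQ' : (polarBilin Q').Nondegenerate) :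
    ∃ (ψ : V ≃ₗ[F] V') (c : F), ∀ v, Q v = c * Q' (ψ v) := by
  classical
  obtain ⟨b, a1, a2, a3, a4, a5⟩ := Cfsg.Agent.S2618.result hV Q hQ
  obtain ⟨b', a1', a2', a3', a4', a5'⟩ := Cfsg.Agent.S2618.result hV' Q' hQ'
  obtain ⟨c, hc⟩ : ∃ c : F, c = Q (b (Sum.inl ())) / Q' (b' (Sum.inl ())) := ⟨_, rfl⟩
  have hc0 : c ≠ 0 := by
    rw [hc]
    exact div_ne_zero a1 a1'
  have hc1 : Q (b (Sum.inl ())) = c * Q' (b' (Sum.inl ())) := by
    rw [hc]
    field_simp
  let w : Unit ⊕ (Fin m ⊕ Fin m) → Fˣ := Sum.elim (fun _ => 1)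
    (Sum.elim (fun _ => (Units.mk0 c hc0)⁻¹) (fun _ => 1))
  let b₁ := b'.unitsSMul w
  have hb₁ : ∀ i, b₁ i = w i • b' i := fun i => Module.Basis.unitsSMul_apply i
  have hb₁1 : b₁ (Sum.inl ()) = b' (Sum.inl ()) := by
    rw [hb₁]
    simp [w]
  have hb₁2 : ∀ i, b₁ (Sum.inr (Sum.inl i)) = c⁻¹ • b' (Sum.inr (Sum.inl i)) := by
    intro i
    rw [hb₁]
    simp [w, Units.smul_def]
  have hb₁3 : ∀ i, b₁ (Sum.inr (Sum.inr i)) = b' (Sum.inr (Sum.inr i)) := by
    intro i
    rw [hb₁]
    simp [w]
  obtain ⟨g, -, hg⟩ := Cfsg.Agent.Lib.Classical.Witt.Index.exists_isometry_of_bases Q (c • Q') b b₁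
    (by
      rintro (i | i | i)
      · rw [hb₁1]
        simpa using hc1
      · rw [hb₁2, (a3 i).1]
        simp [QuadraticMap.map_smul, (a3' i).1]
      · rw [hb₁3, (a3 i).2]
        simp [(a3' i).2])
    (by
      have hpol : ∀ x y, polar ⇑(c • Q') x y = c * polar ⇑Q' x y := by
        intro x y
        simp only [polar, QuadraticMap.smul_apply, smul_eq_mul]
        ring
      rintro (i | i | i) (j | j | j)
      · obtain rfl : i = () := rfl
        obtain rfl : j = () := rfl
        rw [hb₁1, hpol, polar_self, polar_self, hc1]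
        simp only [nsmul_eq_mul, Nat.cast_ofNat]
        ring
      · rw [hb₁1, hb₁2, hpol, polar_smul_right]
        rw [(a2 j).1]
        obtain rfl : i = () := rfl
        rw [(a2' j).1]
        simp
      · rw [hb₁1, hb₁3, hpol]
        obtain rfl : i = () := rfl
        rw [(a2 j).2, (a2' j).2]
        simp
      · rw [hb₁1, hb₁2, hpol, polar_smul_left]
        obtain rfl : j = () := rfl
        rw [polar_comm, (a2 i).1, polar_comm, (a2' i).1]
        simp
      · rw [hb₁2, hb₁2, hpol, polar_smul_left, polar_smul_right, (a5 i j).1, (a5' i j).1]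
        simp
      · rw [hb₁2, hb₁3, hpol, polar_smul_left, a4, a4']
        simp only [smul_eq_mul]
        by_cases h : i = j
        · simp [h, hc0]
        · simp [h]
      · rw [hb₁3, hb₁1, hpol]
        obtain rfl : j = () := rfl
        rw [polar_comm, (a2 i).2, polar_comm, (a2' i).2]
        simp
      · rw [hb₁3, hb₁2, hpol, polar_smul_right, polar_comm, a4, polar_comm, a4']
        simp only [smul_eq_mul]
        by_cases h : i = j
        · simp [h, hc0]
        · simp [h, eq_comm]
      · rw [hb₁3, hb₁3, hpol, (a5 i j).2, (a5' i j).2]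
        simp)
  refine ⟨g, c, fun v => ?_⟩
  have := hg v
  rw [← this]
  simp

/-- The odd dimensional existence theorem. -/
theorem hasType_odd [Finite F] (h2F : (2 : F) ≠ 0) (Q : QuadraticForm F V) (hQ : (polarBilin Q).Nondegenerate)
    (hodd : Odd (finrank F V)) {μ : Multiset ℕ} (hμ : ∀ a ∈ μ, 0 < a) (hs : μ.sum = finrank F V)
    (heven : ∀ e : ℕ, Even e → Even (μ.count e)) : HasType Q μ := by
  classical
  obtain ⟨t, d, rfl⟩ := exists_family μ
  have hd : ∀ k, 0 < d k := fun k => hμ _ (Multiset.mem_map_of_mem d (Finset.mem_univ_val k))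
  obtain ⟨Q', hnd', hT⟩ := exists_form h2F hd heven
  obtain ⟨m, hm⟩ := hodd
  have hV' : finrank F (Ix d → F) = 2 * m + 1 := by
    rw [Module.finrank_fintype_fun_eq_card, Fintype.card_sigma, ← hm, ← hs, sum_mu]
    simp
  obtain ⟨ψ, c, hc⟩ := exists_similitude hm hV' Q Q' hQ hnd'
  exact hT.congr ψ c hc

end Odd

section Split

variable {V : Type*} [AddCommGroup V] [Module F V] [FiniteDimensional F V]

theorem polar_nondeg_weighted (h2F : (2 : F) ≠ 0) {a : ℕ} (w : Fin a → Fˣ) :
    (polarBilin (weightedSumSquares F w)).Nondegenerate := by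
  classical
  have key : ∀ x y : Fin a → F, polarBilin (weightedSumSquares F w) x y = ∑ i, 2 * (w i : F) * x i * y i := by
    intro x y
    show polar (weightedSumSquares F w) x y = _
    simp only [polar, weightedSumSquares_apply, Pi.add_apply, Units.smul_def, smul_eq_mul]
    rw [← Finset.sum_sub_distrib, ← Finset.sum_sub_distrib]
    refine Finset.sum_congr rfl fun i _ => ?_
    ring
  have h1 : ∀ x : Fin a → F, (∀ y, polarBilin (weightedSumSquares F w) x y = 0) → x = 0 := by
    intro x hx
    funext i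
    have h := hx (Pi.single i 1)
    rw [key] at h
    simp only [Pi.single_apply, mul_ite, mul_one, mul_zero, Finset.sum_ite_eq', Finset.mem_univ, if_true] at h
    exact (mul_eq_zero.1 h).resolve_left (mul_ne_zero h2F (Units.ne_zero _))
  constructor
  · exact h1
  · intro y hy
    apply h1
    intro x
    rw [key, ← hy x, key]
    refine Finset.sum_congr rfl fun i _ => ?_
    ring

/-- Splitting a nondegenerate space into orthogonal nondegenerate spaces of given dimensions. -/
theorem exists_split (h2F : (2 : F) ≠ 0) (Q : QuadraticForm F V) (hQ : (polarBilin Q).Nondegenerate) {a b : ℕ}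
    (h : finrank F V = a + b) :
    ∃ (Q₁ : QuadraticForm F (Fin a → F)) (Q₂ : QuadraticForm F (Fin b → F)),
      (polarBilin Q₁).Nondegenerate ∧ (polarBilin Q₂).Nondegenerate ∧
      ∃ ψ : V ≃ₗ[F] (Fin a → F) × (Fin b → F), ∀ v, Q v = 1 * (Q₁.prod Q₂) (ψ v) := by
  classical
  haveI : Invertible (2 : F) := invertibleOfNonzero h2F
  have hsep : (associated (R := F) Q).SeparatingLeft := by
    intro x hx
    apply hQ.1
    intro y
    have := hx y
    rw [associated_apply] at this
    show polar Q x y = 0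
    have h3 : Q (x + y) - Q x - Q y = 0 := by
      have h4 : (⅟2 : F) * (Q (x + y) - Q x - Q y) = 0 := this
      have h5 : (⅟2 : F) ≠ 0 := by
        intro h6
        have h7 := mul_invOf_self (2 : F)
        rw [h6, mul_zero] at h7
        exact zero_ne_one h7
      exact (mul_eq_zero.1 h4).resolve_left h5
    exact h3
  obtain ⟨w, ⟨e⟩⟩ := Q.equivalent_weightedSumSquares_units_of_nondegenerate' hsep
  let σ : Fin a ⊕ Fin b ≃ Fin (finrank F V) := finSumFinEquiv.trans (finCongr h.symm)
  refine ⟨weightedSumSquares F (fun i => w (σ (Sum.inl i))), weightedSumSquares F (fun i => w (σ (Sum.inr i))),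
    polar_nondeg_weighted h2F _, polar_nondeg_weighted h2F _,
    (e.toLinearEquiv.trans (LinearEquiv.funCongrLeft F F σ)).trans (LinearEquiv.sumArrowLequivProdArrow _ _ F F), ?_⟩
  intro v
  rw [one_mul, ← e.map_app v]
  simp only [weightedSumSquares_apply, QuadraticMap.prod_apply]
  rw [← Equiv.sum_comp σ, Fintype.sum_sum_type]
  rfl

/-- The even dimensional existence theorem, in presence of an odd part. -/
theorem hasType_of_odd_part [Finite F] (h2F : (2 : F) ≠ 0) (Q : QuadraticForm F V) (hQ : (polarBilin Q).Nondegenerate)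
    (hev : Even (finrank F V)) {μ : Multiset ℕ} (hμ : ∀ a ∈ μ, 0 < a) (hs : μ.sum = finrank F V)
    (heven : ∀ e : ℕ, Even e → Even (μ.count e)) {a : ℕ} (ha : a ∈ μ) (hao : Odd a) : HasType Q μ := by
  obtain ⟨μ', rfl⟩ := Multiset.exists_cons_of_mem ha
  rw [Multiset.sum_cons] at hs
  obtain ⟨Q₁, Q₂, h1, h2, ψ, hψ⟩ := exists_split h2F Q hQ (a := a) (b := μ'.sum) hs.symm
  have hT₁ : HasType Q₁ {a} := by
    apply hasType_odd h2F Q₁ h1
    · simpa using hao
    · intro x hx
      rw [Multiset.mem_singleton] at hx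
      subst hx
      exact hμ _ ha
    · simp
    · intro e he
      rw [Multiset.count_singleton]
      split_ifs with h5
      · subst h5
        exact absurd he (Nat.not_even_iff_odd.2 hao)
      · exact Even.zero
  have hT₂ : HasType Q₂ μ' := by
    apply hasType_odd h2F Q₂ h2
    · rw [Module.finrank_fin_fun]
      rw [Nat.odd_iff] at hao ⊢
      rw [Nat.even_iff] at hev
      omega
    · intro x hx
      exact hμ _ (Multiset.mem_cons_of_mem hx)
    · simp
    · intro e he
      have := heven e he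
      rwa [Multiset.count_cons_of_ne] at this
      rintro rfl
      exact absurd he (Nat.not_even_iff_odd.2 hao)
  have := (hT₁.prod hT₂).congr ψ 1 hψ
  rwa [Multiset.singleton_add] at this

end Split

end Cfsg.Agent.Lib.Classical.OJordan.Model
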