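import Mathlib
import Cfsg.Agent.Lib.Classical.OJordan.Model
import Cfsg.Agent.Lib.Linalg.OrthModels

/-!
# Doubled partitions on the hyperbolic form
-/

set_option autoImplicit false
set_option linter.unusedSectionVars false
set_option linter.unusedSimpArgs false
set_option linter.unusedVariables false

namespace Cfsg.Agent.Lib.Classical.OJordan.Plus

open Module QuadraticMap Matrix
open Cfsg.Agent.Lib.Classical.Elusive.JordanType Cfsg.Agent.Lib.Classical.OJordan.Model
open Cfsg.Agent.Lib.Linalg.OrthModels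

variable {F : Type*} [Field F]

/-- A multiset with all multiplicities even is a double. -/
theorem exists_half : ∀ (n : ℕ) (μ : Multiset ℕ), Multiset.card μ = n → (∀ e, Even (μ.count e)) →
    ∃ l : Multiset ℕ, μ = l + l := by
  intro n
  induction n using Nat.strong_induction_on with
  | _ n ih =>
    intro μ hn hev
    by_cases h0 : μ = 0
    · exact ⟨0, by simp [h0]⟩
    obtain ⟨e, he⟩ := Multiset.exists_mem_of_ne_zero h0
    obtain ⟨μ₁, rfl⟩ := Multiset.exists_cons_of_mem he
    have h1 : e ∈ μ₁ := by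
      by_contra h2
      have h3 := hev e
      rw [Multiset.count_cons_self, Multiset.count_eq_zero_of_notMem h2] at h3
      simp at h3
    obtain ⟨μ₂, rfl⟩ := Multiset.exists_cons_of_mem h1
    have h4 : ∀ x, Even (μ₂.count x) := by
      intro x
      have h3 := hev x
      by_cases hx : x = e
      · subst hx
        rw [Multiset.count_cons_self, Multiset.count_cons_self] at h3
        rw [show Multiset.count x μ₂ + 1 + 1 = Multiset.count x μ₂ + 2 by ring] at h3
        exact (Nat.even_add.1 h3).2 even_two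
      · rwa [Multiset.count_cons_of_ne hx, Multiset.count_cons_of_ne hx] at h3
    simp only [Multiset.card_cons] at hn
    obtain ⟨l, hl⟩ := ih (Multiset.card μ₂) (by omega) μ₂ rfl h4
    refine ⟨e ::ₘ l, ?_⟩
    rw [hl, Multiset.cons_add, Multiset.add_cons]

theorem eq_zero_of_gg {V : Type*} [AddCommGroup V] [Module F V] [FiniteDimensional F V] {N : Module.End F V} {μ : Multiset ℕ} {M : ℕ}
    (hN : ∀ k, finrank F ((⊤ : Submodule F V).map (N ^ k)) = gg μ k) (hM : ∀ e ∈ μ, e ≤ M) : N ^ M = 0 := by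
  have h1 := hN M
  rw [gg_eq_zero hM] at h1
  have h2 := Submodule.finrank_eq_zero.1 h1
  apply LinearMap.ext
  intro x
  have h3 : (N ^ M) x ∈ (⊤ : Submodule F V).map (N ^ M) := ⟨x, trivial, rfl⟩
  rw [h2] at h3
  exact h3

/-- The element `h ⊕ h⁻ᵀ`. -/
theorem hasType_plus {d : ℕ} {l : Multiset ℕ} (hl : ∀ a ∈ l, 0 < a) (hs : l.sum = d) :
    HasType (plusQ d F) (l + l) := by
  classical
  obtain ⟨N, hN⟩ := exists_model (F := F) l hl hs
  let A : Matrix (Fin d) (Fin d) F := LinearMap.toMatrix' N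
  have hNA : N = Matrix.toLin' A := (Matrix.toLin'_toMatrix' N).symm
  have hNd : N ^ d = 0 := eq_zero_of_gg hN (fun e he => by
    rw [← hs]
    exact Multiset.single_le_sum (fun x _ => Nat.zero_le x) e he)
  have hAd : A ^ d = 0 := by
    apply Matrix.toLin'.injective
    rw [Matrix.toLin'_pow, ← hNA, hNd, map_zero]
  have hrankA : ∀ k, (A ^ k).rank = gg l k := by
    intro k
    rw [← hN k, hNA, ← Matrix.toLin'_pow, Submodule.map_top, Matrix.toLin'_apply']
    rfl
  obtain ⟨u, hu⟩ : IsUnit (1 + A) := IsNilpotent.isUnit_one_add ⟨d, hAd⟩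
  obtain ⟨M', hM'⟩ : ∃ M' : Matrix (Fin d) (Fin d) F, M' = ((u⁻¹ : (Matrix (Fin d) (Fin d) F)ˣ) : Matrix (Fin d) (Fin d) F) := ⟨_, rfl⟩
  have h1 : M' * (1 + A) = 1 := by
    rw [hM', ← hu]
    exact u.inv_mul
  have hM'unit : IsUnit M' := by
    rw [hM']
    exact Units.isUnit _
  have hcomm : Commute M' A := by
    rw [hM']
    apply Commute.units_inv_left
    rw [hu]
    exact (Commute.one_left A).add_left (Commute.refl A)
  have h2 : M' - 1 = (-M') * A := by
    have h3 : M' + M' * A = 1 := by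
      rw [← h1]
      noncomm_ring
    rw [← h3]
    noncomm_ring
  have h3 : ∀ k, ((M' - 1) ^ k).rank = gg l k := by
    intro k
    rw [h2, (hcomm.neg_left).mul_pow, Matrix.rank_mul_eq_right_of_isUnit_det, hrankA]
    exact (Matrix.isUnit_iff_isUnit_det _).1 (IsUnit.pow k hM'unit.neg)
  let B : Matrix (Fin d) (Fin d) F := M'ᵀ - 1
  have hB : B = (M' - 1)ᵀ := by
    simp [B, Matrix.transpose_sub]
  have h4 : ∀ k, finrank F ((⊤ : Submodule F (Fin d → F)).map ((Matrix.toLin' B) ^ k)) = gg l k := by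
    intro k
    rw [← h3 k, ← Matrix.toLin'_pow, Submodule.map_top, Matrix.toLin'_apply', hB, ← Matrix.transpose_pow,
      ← Matrix.rank_transpose ((M' - 1) ^ k)]
    rfl
  let ψ : (Fin d ⊕ Fin d → F) ≃ₗ[F] (Fin d → F) × (Fin d → F) := LinearEquiv.sumArrowLequivProdArrow _ _ F F
  let Q₀ : QuadraticForm F ((Fin d → F) × (Fin d → F)) := (plusQ d F).comp (ψ.symm : _ →ₗ[F] _)
  have hQ₀ : ∀ x y, Q₀ (x, y) = x ⬝ᵥ y := by
    intro x y
    show plusQ d F (ψ.symm (x, y)) = _
    rw [plusQ_apply]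
    simp [Cfsg.quadFormPlus, ψ, dotProduct]
  have hT₀ : HasType Q₀ (l + l) := by
    refine ⟨N.prodMap (Matrix.toLin' B), ?_, ?_⟩
    · rintro ⟨x, y⟩
      simp only [LinearMap.prodMap_apply, Prod.mk_add_mk, hQ₀]
      have e1 : x + N x = (1 + A) *ᵥ x := by
        rw [Matrix.add_mulVec, Matrix.one_mulVec, hNA, Matrix.toLin'_apply]
      have e2 : y + (Matrix.toLin' B) y = M'ᵀ *ᵥ y := by
        rw [Matrix.toLin'_apply, Matrix.sub_mulVec, Matrix.one_mulVec]
        abel
      rw [e1, e2, Matrix.dotProduct_mulVec, Matrix.vecMul_transpose, Matrix.mulVec_mulVec, h1, Matrix.one_mulVec]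
    · intro k
      rw [prodMap_pow, finrank_map_prodMap, hN, h4, gg_add]
  refine hT₀.congr ψ 1 (fun v => ?_)
  rw [one_mul]
  show _ = plusQ d F (ψ.symm (ψ v))
  rw [LinearEquiv.symm_apply_apply]

end Cfsg.Agent.Lib.Classical.OJordan.Plus
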