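import Mathlib

/-!
# Combinatorics of partitions with even parts of even multiplicity
-/

set_option autoImplicit false
set_option linter.unusedSectionVars false
set_option linter.unusedSimpArgs false
set_option linter.unusedVariables false

namespace Cfsg.Agent.Lib.Classical.OJordan.Combi

/-- A partition in which all parts are even has even sum. -/
theorem even_sum_of_all_even {s : Multiset ℕ} (h : ∀ x ∈ s, Even x) : Even s.sum := by
  rw [even_iff_two_dvd]
  exact Multiset.dvd_sum (fun x hx => even_iff_two_dvd.1 (h x hx))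

/-- The all-ones partition. -/
theorem all_ones {μ : Multiset ℕ} {n m : ℕ} (hmn : m ≤ n) (hs : μ.sum = n) (hpos : ∀ e ∈ μ, 0 < e)
    (h2 : ¬ ∃ a ∈ μ, 2 ≤ a) :
    ∃ ν : Multiset ℕ, ν ≤ μ ∧ ν.sum = m ∧ ∀ e : ℕ, Even e → Even (ν.count e) := by
  have h1 : ∀ e ∈ μ, e = 1 := by
    intro e he
    by_contra hne
    have := hpos e he
    exact h2 ⟨e, he, by omega⟩
  have h3 : μ = Multiset.replicate (Multiset.card μ) 1 := Multiset.eq_replicate.2 ⟨rfl, h1⟩
  have h4 : Multiset.card μ = n := by
    rw [h3, Multiset.sum_replicate] at hs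
    simpa using hs
  refine ⟨Multiset.replicate m 1, ?_, by simp, ?_⟩
  · rw [h3, h4]
    exact Multiset.replicate_le_replicate _ |>.2 hmn
  · intro e he
    rw [Multiset.count_replicate, if_neg]
    · exact Even.zero
    · rintro rfl
      exact absurd he (by decide)

/-- Replacing a pair `(e, e)` of even parts by `(e + 1, e - 1)`. -/
theorem patch {p n m : ℕ} (hpo : Odd p) (hme : Even m)
    (PC : ∀ μ : Multiset ℕ, (∀ e ∈ μ, 0 < e ∧ e ≤ p) → (∀ e : ℕ, Even e → Even (μ.count e)) → μ.sum = n →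
      (∃ a ∈ μ, Odd a) → ∃ ν : Multiset ℕ, ν ≤ μ ∧ ν.sum = m ∧ ∀ e : ℕ, Even e → Even (ν.count e))
    (hn : 0 < n) (μ : Multiset ℕ) (hμ : ∀ e ∈ μ, 0 < e ∧ e ≤ p) (hev : ∀ e : ℕ, Even e → Even (μ.count e))
    (hs : μ.sum = n) : ∃ ν : Multiset ℕ, ν ≤ μ ∧ ν.sum = m ∧ ∀ e : ℕ, Even e → Even (ν.count e) := by
  by_cases hodd : ∃ a ∈ μ, Odd a
  · exact PC μ hμ hev hs hodd
  have hall : ∀ x ∈ μ, Even x := by
    intro x hx
    by_contra h
    exact hodd ⟨x, hx, Nat.not_even_iff_odd.1 h⟩
  have h0 : μ ≠ 0 := by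
    rintro rfl
    simp at hs
    omega
  obtain ⟨e, he⟩ := Multiset.exists_mem_of_ne_zero h0
  have heev := hall e he
  obtain ⟨he0, hep⟩ := hμ e he
  have he1 : e + 1 ≤ p := by
    rcases Nat.lt_or_ge e p with h | h
    · omega
    · have : e = p := by omega
      subst this
      exact absurd hpo (Nat.not_odd_iff_even.2 heev)
  obtain ⟨μ₁, rfl⟩ := Multiset.exists_cons_of_mem he
  have h1 : e ∈ μ₁ := by
    by_contra h2
    have h3 := hev e heev
    rw [Multiset.count_cons_self, Multiset.count_eq_zero_of_notMem h2] at h3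
    simp at h3
  obtain ⟨μ₂, rfl⟩ := Multiset.exists_cons_of_mem h1
  have hall2 : ∀ x ∈ μ₂, Even x := fun x hx => hall x (Multiset.mem_cons_of_mem (Multiset.mem_cons_of_mem hx))
  have heodd1 : Odd (e + 1) := heev.add_one
  have heodd2 : Odd (e - 1) := Nat.Even.sub_odd (by omega) heev odd_one
  have hne1 : ∀ x : ℕ, Even x → x ≠ e + 1 := by
    rintro x hx rfl
    exact absurd hx (Nat.not_even_iff_odd.2 heodd1)
  have hne2 : ∀ x : ℕ, Even x → x ≠ e - 1 := by
    rintro x hx h
    subst h
    exact absurd hx (Nat.not_even_iff_odd.2 heodd2)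
  have hn1 : e + 1 ∉ μ₂ := fun h => absurd (hall2 _ h) (Nat.not_even_iff_odd.2 heodd1)
  have hn2 : e - 1 ∉ μ₂ := fun h => absurd (hall2 _ h) (Nat.not_even_iff_odd.2 heodd2)
  have hcnt2 : ∀ x, Even x → Even (μ₂.count x) := by
    intro x hx
    have h3 := hev x hx
    by_cases hxe : x = e
    · subst hxe
      rw [Multiset.count_cons_self, Multiset.count_cons_self] at h3
      rw [show Multiset.count x μ₂ + 1 + 1 = Multiset.count x μ₂ + 2 by ring] at h3
      exact (Nat.even_add.1 h3).2 even_two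
    · rwa [Multiset.count_cons_of_ne hxe, Multiset.count_cons_of_ne hxe] at h3
  simp only [Multiset.sum_cons] at hs
  obtain ⟨ν', hle, hsum, hpar⟩ := PC ((e + 1) ::ₘ (e - 1) ::ₘ μ₂)
    (by
      intro x hx
      rw [Multiset.mem_cons, Multiset.mem_cons] at hx
      rcases hx with rfl | rfl | hx
      · exact ⟨by omega, he1⟩
      · have he2 : 2 ≤ e := by
          obtain ⟨k, hk⟩ := heev
          omega
        exact ⟨by omega, by omega⟩
      · exact hμ x (Multiset.mem_cons_of_mem (Multiset.mem_cons_of_mem hx)))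
    (by
      intro x hx
      rw [Multiset.count_cons_of_ne (hne1 x hx), Multiset.count_cons_of_ne (hne2 x hx)]
      exact hcnt2 x hx)
    (by
      simp only [Multiset.sum_cons]
      omega)
    ⟨e + 1, Multiset.mem_cons_self _ _, heodd1⟩
  obtain ⟨a0, ha0⟩ := hme
  obtain ⟨c1, hc1⟩ := heodd1
  obtain ⟨c2, hc2⟩ := heodd2
  by_cases c1' : e + 1 ∈ ν'
  · obtain ⟨ν₁, rfl⟩ := Multiset.exists_cons_of_mem c1'
    have hle1 : ν₁ ≤ (e - 1) ::ₘ μ₂ := (Multiset.cons_le_cons_iff _).1 hle
    rw [Multiset.sum_cons] at hsum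
    by_cases c2' : e - 1 ∈ ν₁
    · obtain ⟨ν₂, rfl⟩ := Multiset.exists_cons_of_mem c2'
      have hle2 : ν₂ ≤ μ₂ := (Multiset.cons_le_cons_iff _).1 hle1
      rw [Multiset.sum_cons] at hsum
      refine ⟨e ::ₘ e ::ₘ ν₂, (Multiset.cons_le_cons_iff _).2 ((Multiset.cons_le_cons_iff _).2 hle2), ?_, ?_⟩
      · simp only [Multiset.sum_cons]
        omega
      · intro x hx
        have h3 := hpar x hx
        rw [Multiset.count_cons_of_ne (hne1 x hx), Multiset.count_cons_of_ne (hne2 x hx)] at h3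
        by_cases hxe : x = e
        · subst hxe
          rw [Multiset.count_cons_self, Multiset.count_cons_self,
            show Multiset.count x ν₂ + 1 + 1 = Multiset.count x ν₂ + 2 by ring]
          exact h3.add even_two
        · rwa [Multiset.count_cons_of_ne hxe, Multiset.count_cons_of_ne hxe]
    · have hle2 : ν₁ ≤ μ₂ := (Multiset.le_cons_of_notMem c2').1 hle1
      exfalso
      obtain ⟨b, hb⟩ := even_sum_of_all_even (fun x hx => hall2 x (Multiset.mem_of_le hle2 hx))
      omega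
  · have hle1 : ν' ≤ (e - 1) ::ₘ μ₂ := (Multiset.le_cons_of_notMem c1').1 hle
    by_cases c2' : e - 1 ∈ ν'
    · obtain ⟨ν₁, rfl⟩ := Multiset.exists_cons_of_mem c2'
      have hle2 : ν₁ ≤ μ₂ := (Multiset.cons_le_cons_iff _).1 hle1
      rw [Multiset.sum_cons] at hsum
      exfalso
      obtain ⟨b, hb⟩ := even_sum_of_all_even (fun x hx => hall2 x (Multiset.mem_of_le hle2 hx))
      omega
    · have hle2 : ν' ≤ μ₂ := (Multiset.le_cons_of_notMem c2').1 hle1
      exact ⟨ν', hle2.trans ((Multiset.le_cons_self _ _).trans (Multiset.le_cons_self _ _)), hsum, hpar⟩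

/-- Sums of partitions into parts of size at most three. -/
theorem sum_of_mem_123 {ν : Multiset ℕ} (h : ∀ x ∈ ν, x = 1 ∨ x = 2 ∨ x = 3) :
    ν.sum = ν.count 1 + 2 * ν.count 2 + 3 * ν.count 3 := by
  have h1 : ν.toFinset ⊆ {1, 2, 3} := by
    intro x hx
    have := h x (Multiset.mem_toFinset.1 hx)
    simpa using this
  rw [Finset.sum_multiset_count_of_subset ν {1, 2, 3} h1]
  simp only [smul_eq_mul]
  rw [Finset.sum_insert (by decide), Finset.sum_insert (by decide), Finset.sum_singleton]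
  ring

/-- The parity of `a :: replicate r 2`. -/
theorem even_count_model {a b r : ℕ} (ha : Odd a) (hb : Odd b) (hr : Even r) (e : ℕ) (he : Even e) :
    Even ((a ::ₘ b ::ₘ Multiset.replicate r 2).count e) := by
  have h1 : e ≠ a := by
    rintro rfl
    exact absurd he (Nat.not_even_iff_odd.2 ha)
  have h2 : e ≠ b := by
    rintro rfl
    exact absurd he (Nat.not_even_iff_odd.2 hb)
  rw [Multiset.count_cons_of_ne h1, Multiset.count_cons_of_ne h2, Multiset.count_replicate]
  split_ifs
  · exact hr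
  · exact Even.zero

theorem even_count_model1 {a r : ℕ} (ha : Odd a) (hr : Even r) (e : ℕ) (he : Even e) :
    Even ((a ::ₘ Multiset.replicate r 2).count e) := by
  have h1 : e ≠ a := by
    rintro rfl
    exact absurd he (Nat.not_even_iff_odd.2 ha)
  rw [Multiset.count_cons_of_ne h1, Multiset.count_replicate]
  split_ifs
  · exact hr
  · exact Even.zero

/-- The residue of `m` in odd dimension. -/
theorem arith_odd {p d m : ℕ} (hp : Odd p) (hp1 : 1 < p) (hme : Even m)
    (PC : ∀ μ : Multiset ℕ, (∀ e ∈ μ, 0 < e ∧ e ≤ p) → (∀ e : ℕ, Even e → Even (μ.count e)) → μ.sum = 2 * d + 1 →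
      ∃ ν : Multiset ℕ, ν ≤ μ ∧ ν.sum = m ∧ ∀ e : ℕ, Even e → Even (ν.count e)) : m % 4 = 0 := by
  have hp3 : 3 ≤ p := by
    obtain ⟨c, hc⟩ := hp
    omega
  obtain ⟨a0, ha0⟩ := hme
  rcases Nat.even_or_odd d with hd | hd
  · obtain ⟨ν, hle, hs, hpar⟩ := PC (1 ::ₘ Multiset.replicate d 2)
      (by
        intro x hx
        rw [Multiset.mem_cons, Multiset.mem_replicate] at hx
        rcases hx with rfl | ⟨-, rfl⟩ <;> omega)
      (even_count_model1 odd_one hd)
      (by
        simp only [Multiset.sum_cons, Multiset.sum_replicate, smul_eq_mul]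
        omega)
    have hmem : ∀ x ∈ ν, x = 1 ∨ x = 2 ∨ x = 3 := by
      intro x hx
      have := Multiset.mem_of_le hle hx
      rw [Multiset.mem_cons, Multiset.mem_replicate] at this
      rcases this with h | ⟨-, h⟩ <;> omega
    have h1 := sum_of_mem_123 hmem
    have h2 := Multiset.count_le_of_le 1 hle
    have h3 := Multiset.count_le_of_le 3 hle
    have e1 : (1 ::ₘ Multiset.replicate d 2).count 1 = 1 := by
      simp [Multiset.count_cons, Multiset.count_replicate]
    have e3 : (1 ::ₘ Multiset.replicate d 2).count 3 = 0 := by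
      simp [Multiset.count_cons, Multiset.count_replicate]
    obtain ⟨b, hb⟩ := hpar 2 even_two
    rw [e1] at h2
    rw [e3] at h3
    omega
  · obtain ⟨ν, hle, hs, hpar⟩ := PC (3 ::ₘ Multiset.replicate (d - 1) 2)
      (by
        intro x hx
        rw [Multiset.mem_cons, Multiset.mem_replicate] at hx
        rcases hx with rfl | ⟨-, rfl⟩ <;> omega)
      (even_count_model1 (by decide) (Nat.Odd.sub_odd hd odd_one))
      (by
        obtain ⟨c, hc⟩ := hd
        simp only [Multiset.sum_cons, Multiset.sum_replicate, smul_eq_mul]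
        omega)
    have hmem : ∀ x ∈ ν, x = 1 ∨ x = 2 ∨ x = 3 := by
      intro x hx
      have := Multiset.mem_of_le hle hx
      rw [Multiset.mem_cons, Multiset.mem_replicate] at this
      rcases this with h | ⟨-, h⟩ <;> omega
    have h1 := sum_of_mem_123 hmem
    have h2 := Multiset.count_le_of_le 1 hle
    have h3 := Multiset.count_le_of_le 3 hle
    have e1 : (3 ::ₘ Multiset.replicate (d - 1) 2).count 1 = 0 := by
      simp [Multiset.count_cons, Multiset.count_replicate]
    have e3 : (3 ::ₘ Multiset.replicate (d - 1) 2).count 3 = 1 := by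
      simp [Multiset.count_cons, Multiset.count_replicate]
    obtain ⟨b, hb⟩ := hpar 2 even_two
    rw [e1] at h2
    rw [e3] at h3
    omega

/-- The residue of `m` in even dimension `2 d`, `d` even. -/
theorem arith_even {p d m : ℕ} (hp : Odd p) (hp1 : 1 < p) (hme : Even m) (hd2 : 2 ≤ d) (hd : Even d)
    (PC : ∀ μ : Multiset ℕ, (∀ e ∈ μ, 0 < e ∧ e ≤ p) → (∀ e : ℕ, Even e → Even (μ.count e)) → μ.sum = 2 * d →
      ∃ ν : Multiset ℕ, ν ≤ μ ∧ ν.sum = m ∧ ∀ e : ℕ, Even e → Even (ν.count e)) : m % 4 = 0 := by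
  have hp3 : 3 ≤ p := by
    obtain ⟨c, hc⟩ := hp
    omega
  obtain ⟨a0, ha0⟩ := hme
  obtain ⟨ν, hle, hs, hpar⟩ := PC (3 ::ₘ 1 ::ₘ Multiset.replicate (d - 2) 2)
    (by
      intro x hx
      rw [Multiset.mem_cons, Multiset.mem_cons, Multiset.mem_replicate] at hx
      rcases hx with rfl | rfl | ⟨-, rfl⟩ <;> omega)
    (even_count_model (by decide) odd_one (by obtain ⟨c, hc⟩ := hd; exact ⟨c - 1, by omega⟩))
    (by
      simp only [Multiset.sum_cons, Multiset.sum_replicate, smul_eq_mul]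
      omega)
  have hmem : ∀ x ∈ ν, x = 1 ∨ x = 2 ∨ x = 3 := by
    intro x hx
    have := Multiset.mem_of_le hle hx
    rw [Multiset.mem_cons, Multiset.mem_cons, Multiset.mem_replicate] at this
    rcases this with h | h | ⟨-, h⟩ <;> omega
  have h1 := sum_of_mem_123 hmem
  have h2 := Multiset.count_le_of_le 1 hle
  have h3 := Multiset.count_le_of_le 3 hle
  have e1 : (3 ::ₘ 1 ::ₘ Multiset.replicate (d - 2) 2).count 1 = 1 := by
    simp [Multiset.count_cons, Multiset.count_replicate]
  have e3 : (3 ::ₘ 1 ::ₘ Multiset.replicate (d - 2) 2).count 3 = 1 := by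
    simp [Multiset.count_cons, Multiset.count_replicate]
  obtain ⟨b, hb⟩ := hpar 2 even_two
  rw [e1] at h2
  rw [e3] at h3
  have h4 : ν.count 1 = 0 ∨ ν.count 1 = 1 := by omega
  have h5 : ν.count 3 = 0 ∨ ν.count 3 = 1 := by omega
  rcases h4 with h4 | h4 <;> rcases h5 with h5 | h5 <;> omega

end Cfsg.Agent.Lib.Classical.OJordan.Combi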