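import Mathlib
import Cfsg.Agent.Lib.Classical.OJordan.Plus
import Cfsg.Agent.Lib.Classical.Spectra.Bridge
import Cfsg.Prelude.Def_GeometricClasses

/-!
# From an invariant nondegenerate subspace to sub-partitions
-/

set_option autoImplicit false
set_option linter.unusedSectionVars false
set_option linter.unusedSimpArgs false
set_option linter.unusedVariables false

namespace Cfsg.Agent.Lib.Classical.OJordan.Pipeline

open Module QuadraticMap Matrix
open Cfsg.Agent.Lib.Classical.Elusive.Inv Cfsg.Agent.Lib.Classical.Elusive.JordanType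
open Cfsg.Agent.Lib.Classical.OJordan.Model Cfsg.Agent.Lib.Classical.OJordan.Plus
open Cfsg.Agent.Lib.Classical.Spectra.Bridge
open Cfsg.Agent.Lib.Classical.Orth.Basic

variable {ι : Type} [Fintype ι] [DecidableEq ι] {F : Type*} [Field F] [Fintype F] {p : ℕ} [Fact p.Prime] [CharP F p]
variable (Q : QuadraticForm F (ι → F))

theorem pipeline (hQ : (polarBilin Q).Nondegenerate) (h2F : (2 : F) ≠ 0) (hpo : Odd p)
    (P : Submodule F (ι → F) → Prop) {m : ℕ}
    (H : ∀ x : GL ι F, x ∈ Cfsg.Geo.omegaGL (⇑Q) → x ^ p = 1 → (∀ z : F, (x : Matrix ι ι F) ≠ z • (1 : Matrix ι ι F)) →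
      ∃ W : Submodule F (ι → F), (finrank F W = m ∧ Cfsg.Geo.IsNondegenerateOn (polar (⇑Q)) W ∧ P W) ∧
        W.map (Matrix.toLin' (x : Matrix ι ι F)) ≤ W)
    {μ : Multiset ℕ} (hμ : ∀ a ∈ μ, 0 < a ∧ a ≤ p) (h2 : ∃ a ∈ μ, 2 ≤ a) (hT : HasType Q μ) :
    ∃ ν : Multiset ℕ, ν ≤ μ ∧ ν.sum = m ∧ (∀ e : ℕ, Even e → Even (ν.count e)) ∧ (∀ a ∈ ν, 0 < a) ∧
      ∃ (N : Module.End F (ι → F)) (W : Submodule F (ι → F)), finrank F W = m ∧
        Cfsg.Geo.IsNondegenerateOn (polar (⇑Q)) W ∧ P W ∧ IsInv N W ∧ (∀ v, Q (v + N v) = Q v) ∧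
        ∀ k, finrank F (W.map (N ^ k)) = gg ν k := by
  classical
  obtain ⟨N, hIso, hType⟩ := hT
  have hNp : N ^ p = 0 := eq_zero_of_gg hType (fun e he => (hμ e he).2)
  have hp0 : 0 < p := (Fact.out : p.Prime).pos
  let T : Module.End F (ι → F) := 1 + N
  have hTv : ∀ v, T v = v + N v := fun v => rfl
  have hTp : T ^ p = 1 := by
    rw [one_add_pow_char (p := p), hNp, add_zero]
  have hTiso : ∀ v, Q (T v) = Q v := hIso
  obtain ⟨g, hg⟩ := exists_iso Q T hTiso hp0 hTp
  have hgp : g ^ p = 1 := (Mat_pow_eq_one_iff Q g p).1 (by rw [hg]; exact hTp)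
  have hgΩ : g ∈ Cfsg.Omega F (⇑Q) := mem_omega_of_odd Q hQ h2F hpo hgp
  have hact : ∀ v, ((g : GL ι F) : Matrix ι ι F) *ᵥ v = T v := by
    intro v
    rw [← hg]
    rfl
  have hscal : ∀ z : F, ((g : GL ι F) : Matrix ι ι F) ≠ z • (1 : Matrix ι ι F) := by
    intro z hz
    have hNz : N = (z - 1) • (1 : Module.End F (ι → F)) := by
      apply LinearMap.ext
      intro v
      have h3 := hact v
      rw [hz, Matrix.smul_mulVec, Matrix.one_mulVec, hTv] at h3
      show N v = (z - 1) • v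
      rw [sub_smul, one_smul, h3]
      abel
    have hN0 : N = 0 := by
      by_cases hz1 : z - 1 = 0
      · rw [hNz, hz1, zero_smul]
      · have h3 : ((z - 1) • (1 : Module.End F (ι → F))) ^ p = 0 := by
          rw [← hNz, hNp]
        rw [_root_.smul_pow, one_pow] at h3
        have h4 : (1 : Module.End F (ι → F)) = 0 := (smul_eq_zero.1 h3).resolve_left (pow_ne_zero _ hz1)
        rw [← mul_one N, h4, mul_zero]
    have h3 := hType 1
    rw [hN0, pow_one] at h3
    have h4 : gg μ 1 = 0 := by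
      rw [← h3, Submodule.map_zero, finrank_bot]
    obtain ⟨a, ha, ha2⟩ := h2
    have := le_of_gg_eq_zero h4 a ha
    omega
  obtain ⟨W, ⟨hWm, hWnd, hPW⟩, hWinv⟩ := H (g : GL ι F) ⟨g, hgΩ, rfl⟩
    (congrArg Subtype.val hgp) hscal
  have hTW : ∀ w ∈ W, T w ∈ W := by
    intro w hw
    apply hWinv
    refine ⟨w, hw, ?_⟩
    rw [Matrix.toLin'_apply, hact]
  have hNW : IsInv N W := by
    intro w hw
    have h3 := W.sub_mem (hTW w hw) hw
    rwa [hTv, add_sub_cancel_left] at h3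
  let B : LinearMap.BilinForm F (ι → F) := polarBilin Q
  have hBdef : ∀ x y, B x y = polar (⇑Q) x y := fun x y => rfl
  have hS : ∀ x y, B x y = B y x := fun x y => polar_comm _ _ _
  have hBT : ∀ x y, B (T x) (T y) = B x y := by
    intro x y
    rw [hBdef, hBdef, polar, polar, ← map_add, hTiso, hTiso, hTiso]
  have hR : B.IsRefl := fun x y h => by rw [hS]; exact h
  have hres : (B.restrict W).Nondegenerate := by
    constructor
    · rintro ⟨x, hx⟩ h
      by_contra hne
      have hx0 : x ≠ 0 := fun h0 => hne (Subtype.ext h0)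
      obtain ⟨y, hy, hy2⟩ := (hWnd x hx hx0).2
      exact hy2 (h ⟨y, hy⟩)
    · rintro ⟨x, hx⟩ h
      by_contra hne
      have hx0 : x ≠ 0 := fun h0 => hne (Subtype.ext h0)
      obtain ⟨y, hy, hy2⟩ := (hWnd x hx hx0).1
      exact hy2 (h ⟨y, hy⟩)
  have hcompl := LinearMap.BilinForm.isCompl_orthogonal_of_restrict_nondegenerate hR hres
  have hW' : IsInv N (B.orthogonal W) := by
    intro v hv n hn
    have hv' : ∀ n ∈ W, B n v = 0 := fun n hn => hv n hn
    have h3 : T (((T ^ (p - 1))) n) = n := by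
      rw [← Module.End.mul_apply, ← pow_succ', Nat.sub_add_cancel hp0, hTp]
      rfl
    have h4 : (T ^ (p - 1)) n ∈ W := IsInv.pow (y := T) hTW (p - 1) hn
    have h5 : B n (T v) = 0 := by
      conv_lhs => rw [← h3]
      rw [hBT]
      exact hv' _ h4
    rw [hTv, map_add, hv' n hn, zero_add] at h5
    exact h5
  obtain ⟨ν, ν', hsum, h1, h3, h4, -⟩ := type_add hNp hNW hW' hcompl.inf_eq_bot hcompl.sup_eq_top
    (fun a ha => (hμ a ha).1) hType
  refine ⟨ν, ?_, ?_, ?_, h1, N, W, hWm, hWnd, hPW, hNW, hIso, h4⟩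
  · rw [hsum]
    exact Multiset.le_add_right _ _
  · rw [← finrank_eq_sum_of_type h4, hWm]
  · apply Cfsg.Agent.Lib.Classical.OJordan.Parity.even_count B hS h2F hNp hNW _ _ h1 h4
    · intro w hw hx
      by_contra hne
      obtain ⟨y, hy, hy2⟩ := (hWnd w hw hne).2
      exact hy2 (hx y hy)
    · intro x _ y _
      exact hBT x y

end Cfsg.Agent.Lib.Classical.OJordan.Pipeline
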