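import Mathlib
import Cfsg.Agent.Lib.Classical.OJordan.Pipeline
import Cfsg.Agent.Lib.Classical.OJordan.Combi

/-!
# The partition clauses
-/

set_option autoImplicit false
set_option linter.unusedSectionVars false
set_option linter.unusedSimpArgs false
set_option linter.unusedVariables false

namespace Cfsg.Agent.Lib.Classical.OJordan.Final

open Module QuadraticMap Matrix
open Cfsg.Agent.Lib.Classical.Elusive.Inv Cfsg.Agent.Lib.Classical.Elusive.JordanType
open Cfsg.Agent.Lib.Classical.OJordan.Model Cfsg.Agent.Lib.Classical.OJordan.Plus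
open Cfsg.Agent.Lib.Classical.OJordan.Pipeline Cfsg.Agent.Lib.Classical.OJordan.Combi

variable {ι : Type} [Fintype ι] [DecidableEq ι] {F : Type*} [Field F] [Fintype F] {p : ℕ} [Fact p.Prime] [CharP F p]
variable (Q : QuadraticForm F (ι → F))

theorem char_facts {q : ℕ} (hq : Fintype.card F = q) (hqodd : Odd q) : (2 : F) ≠ 0 ∧ Odd p ∧ 1 < p := by
  have hp : p.Prime := Fact.out
  obtain ⟨n, -, hn⟩ := FiniteField.card F p
  have hpo : Odd p := by
    rcases hp.eq_two_or_odd' with h | h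
    · subst h
      exfalso
      have hn0 : n.val ≠ 0 := n.ne_zero
      rw [hq, show (n : ℕ) = n.val from rfl] at hn
      rw [hn] at hqodd
      exact absurd hqodd (Nat.not_odd_iff_even.2 ((Nat.even_pow' hn0).2 even_two))
    · exact h
  refine ⟨?_, hpo, hp.one_lt⟩
  intro h
  have h1 : ((2 : ℕ) : F) = 0 := by exact_mod_cast h
  rw [CharP.cast_eq_zero_iff F p 2] at h1
  have h2 := (Nat.prime_dvd_prime_iff_eq hp Nat.prime_two).1 h1
  subst h2
  exact absurd hpo (by decide)

/-- The clause for one partition. -/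
theorem clause (hQ : (polarBilin Q).Nondegenerate) (h2F : (2 : F) ≠ 0) (hpo : Odd p)
    (P : Submodule F (ι → F) → Prop) {m n : ℕ} (hmn : m ≤ n)
    (H : ∀ x : GL ι F, x ∈ Cfsg.Geo.omegaGL (⇑Q) → x ^ p = 1 → (∀ z : F, (x : Matrix ι ι F) ≠ z • (1 : Matrix ι ι F)) →
      ∃ W : Submodule F (ι → F), (finrank F W = m ∧ Cfsg.Geo.IsNondegenerateOn (polar (⇑Q)) W ∧ P W) ∧
        W.map (Matrix.toLin' (x : Matrix ι ι F)) ≤ W)
    {μ : Multiset ℕ} (hμ : ∀ a ∈ μ, 0 < a ∧ a ≤ p) (hs : μ.sum = n) (hT : HasType Q μ) :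
    ∃ ν : Multiset ℕ, ν ≤ μ ∧ ν.sum = m ∧ ∀ e : ℕ, Even e → Even (ν.count e) := by
  by_cases h2 : ∃ a ∈ μ, 2 ≤ a
  · obtain ⟨ν, h3, h4, h5, -⟩ := pipeline Q hQ h2F hpo P H hμ h2 hT
    exact ⟨ν, h3, h4, h5⟩
  · exact all_ones hmn hs (fun a ha => (hμ a ha).1) h2

/-- The residue of `m` for elliptic subspaces, `d` odd. -/
theorem elliptic_arith (hQ : (polarBilin Q).Nondegenerate) (h2F : (2 : F) ≠ 0) (hpo : Odd p) (hp1 : 1 < p)
    {m r : ℕ} (hme : Even m) (hr : Even r) (hr0 : 0 < r)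
    (H : ∀ x : GL ι F, x ∈ Cfsg.Geo.omegaGL (⇑Q) → x ^ p = 1 → (∀ z : F, (x : Matrix ι ι F) ≠ z • (1 : Matrix ι ι F)) →
      ∃ W : Submodule F (ι → F), (finrank F W = m ∧ Cfsg.Geo.IsNondegenerateOn (polar (⇑Q)) W ∧
        ¬ Cfsg.Geo.IsPlusTypeOn (⇑Q) W) ∧ W.map (Matrix.toLin' (x : Matrix ι ι F)) ≤ W)
    (hT : HasType Q (1 ::ₘ 1 ::ₘ Multiset.replicate r 2)) : m % 4 = 2 := by
  classical
  have hp3 : 3 ≤ p := by
    obtain ⟨c, hc⟩ := hpo
    omega
  obtain ⟨ν, hle, hs, hpar, hpos, N, W, hWm, hWnd, hPW, hNW, hIso, hType⟩ := pipeline Q hQ h2F hpo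
    (fun W => ¬ Cfsg.Geo.IsPlusTypeOn (⇑Q) W) H (μ := 1 ::ₘ 1 ::ₘ Multiset.replicate r 2)
    (by
      intro x hx
      rw [Multiset.mem_cons, Multiset.mem_cons, Multiset.mem_replicate] at hx
      rcases hx with rfl | rfl | ⟨-, rfl⟩ <;> omega)
    ⟨2, by
      rw [Multiset.mem_cons, Multiset.mem_cons, Multiset.mem_replicate]
      exact Or.inr (Or.inr ⟨by omega, rfl⟩), le_rfl⟩ hT
  have hmem : ∀ x ∈ ν, x = 1 ∨ x = 2 ∨ x = 3 := by
    intro x hx
    have := Multiset.mem_of_le hle hx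
    rw [Multiset.mem_cons, Multiset.mem_cons, Multiset.mem_replicate] at this
    rcases this with h | h | ⟨-, h⟩ <;> omega
  have h1 := sum_of_mem_123 hmem
  have h2 := Multiset.count_le_of_le 1 hle
  have h3 := Multiset.count_le_of_le 3 hle
  have e1 : (1 ::ₘ 1 ::ₘ Multiset.replicate r 2).count 1 = 2 := by
    simp [Multiset.count_cons, Multiset.count_replicate]
  have e3 : (1 ::ₘ 1 ::ₘ Multiset.replicate r 2).count 3 = 0 := by
    simp [Multiset.count_cons, Multiset.count_replicate]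
  rw [e1] at h2
  rw [e3] at h3
  obtain ⟨b, hb⟩ := hpar 2 even_two
  obtain ⟨a0, ha0⟩ := hme
  have h4 : ν.count 1 = 0 ∨ ν.count 1 = 2 := by omega
  rcases h4 with h4 | h4
  · -- all parts are equal to two
    exfalso
    apply hPW
    have hν2 : ∀ x ∈ ν, x = 2 := by
      intro x hx
      rcases hmem x hx with h | h | h
      · subst h
        rw [Multiset.count_eq_zero] at h4
        exact absurd hx h4
      · exact h
      · subst h
        have : Multiset.count 3 ν = 0 := by omega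
        rw [Multiset.count_eq_zero] at this
        exact absurd hx this
    have hνeq : ν = Multiset.replicate (Multiset.card ν) 2 := Multiset.eq_replicate.2 ⟨rfl, hν2⟩
    have hg2 : gg ν 2 = 0 := gg_eq_zero (fun e he => (hν2 e he).le)
    have hN2 : ∀ w ∈ W, N (N w) = 0 := by
      intro w hw
      have h5 := hType 2
      rw [hg2] at h5
      have h6 := Submodule.finrank_eq_zero.1 h5
      have h7 : (N ^ 2) w ∈ W.map (N ^ 2) := ⟨w, hw, rfl⟩
      rw [h6] at h7
      rw [pow_two, Module.End.mul_apply] at h7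
      exact h7
    have hg1 : gg ν 1 = Multiset.card ν := by
      rw [hνeq]
      simp [gg]
    have hsum : ν.sum = 2 * Multiset.card ν := by
      conv_lhs => rw [hνeq]
      simp
      ring
    have hT1 : ∀ x, Q (x + N x) = Q x := hIso
    have hpol : ∀ x y, polar (⇑Q) (x + N x) (y + N y) = polar (⇑Q) x y := by
      intro x y
      have e : x + N x + (y + N y) = (x + y) + N (x + y) := by
        rw [map_add]
        abel
      rw [polar, polar, e, hT1, hT1, hT1]
    refine ⟨W.map N, ?_, ?_, ?_⟩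
    · rintro _ ⟨w, hw, rfl⟩
      exact hNW w hw
    · rintro _ ⟨w, hw, rfl⟩
      have h5 := hpol w (N w)
      rw [hN2 w hw, add_zero, polar_add_left, add_eq_left, polar_self] at h5
      have h6 : (2 : F) * Q (N w) = 0 := by
        simpa using h5
      exact (mul_eq_zero.1 h6).resolve_left h2F
    · have h5 := hType 1
      rw [pow_one, hg1] at h5
      have h6 := finrank_eq_sum_of_type hType
      rw [h5, h6, hsum]
  · omega

end Cfsg.Agent.Lib.Classical.OJordan.Final
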